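import Cfsg.Agent.Lib.Helper99.Sp.T1

set_option autoImplicit false

/-! # Piece T2 of the symplectic Aschbacher campaign -/

namespace Cfsg.Agent.Lib.Helper99.Sp

open Cfsg Cfsg.Geo Matrix Cfsg.Agent.Lib.Helper13.Asch Cfsg.Agent.Lib.Helper90.Sp
open scoped Kronecker MatrixGroups

variable {ι : Type} [Fintype ι] [DecidableEq ι] {F : Type*} [Field F]

theorem two_ne_zero_of_odd [Fintype F] (hodd : Odd (Fintype.card F)) : (2 : F) ≠ 0 := by
  intro h
  have h2 : ringChar F = 2 := CharP.ringChar_of_prime_eq_zero Nat.prime_two (by exact_mod_cast h)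
  have := FiniteField.even_card_of_char_two h2
  rcases hodd with ⟨k, hk⟩
  omega

section form

variable {κ : Type} [Fintype κ] [DecidableEq κ]

theorem formOfGram_bilinear (G : Matrix κ κ F) : IsBilinearForm (formOfGram id G) where
  add_left x y v := by
    simp only [formOfGram_eq_gform]; exact Cfsg.Agent.Lib.Helper55.Asch.gform_add_left _ _ _ _ _
  smul_left c x v := by
    simp only [formOfGram_eq_gform]; exact Cfsg.Agent.Lib.Helper55.Asch.gform_smul_left _ _ _ _ _
  add_right v x y := by
    simp only [formOfGram_eq_gform]; exact Cfsg.Agent.Lib.Helper55.Asch.gform_add_right _ _ _ _ _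
  smul_right c v x := by
    simp only [formOfGram_eq_gform]
    simpa using Cfsg.Agent.Lib.Helper55.Asch.gform_smul_right (RingHom.id F) G c v x

theorem gramMatrix_formOfGram (G : Matrix κ κ F) : gramMatrix (formOfGram id G) = G := by
  ext i j
  simp only [gramMatrix, formOfGram_eq_gform]
  exact Cfsg.Agent.Lib.Helper55.Asch.gform_single _ _ _ _

theorem formOfGram_nondeg {G : Matrix κ κ F} (h : IsUnit G.det) :
    IsNondegenerateForm (formOfGram id G) := by
  have := Cfsg.Agent.Lib.Helper55.Asch.nondeg_of_isUnit_det (RingEquiv.refl F) G h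
  have e : formOfGram id G = gform ((RingEquiv.refl F : F ≃+* F) : F →+* F) G := by
    funext x y
    rw [formOfGram_eq_gform]
    rfl
  rw [e]
  exact this

theorem formOfGram_swap (G : Matrix κ κ F) (x y : κ → F) :
    formOfGram id G x y = formOfGram id Gᵀ y x := by
  simp only [formOfGram, id, Matrix.transpose_apply]
  rw [Finset.sum_comm]
  refine Finset.sum_congr rfl fun i _ => Finset.sum_congr rfl fun j _ => ?_
  ring

theorem formOfGram_neg (G : Matrix κ κ F) (x y : κ → F) :
    formOfGram id (-G) x y = - formOfGram id G x y := by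
  simp only [formOfGram, id, Matrix.neg_apply, mul_neg, neg_mul, Finset.sum_neg_distrib]

theorem formOfGram_symplectic (h2 : (2 : F) ≠ 0) {G : Matrix κ κ F} (h : IsUnit G.det) (hs : Gᵀ = -G) :
    IsSymplecticForm (formOfGram id G) := by
  have hskew : ∀ v w, formOfGram id G v w = - formOfGram id G w v := by
    intro v w
    rw [formOfGram_swap, hs, formOfGram_neg]
  refine ⟨formOfGram_bilinear G, hskew, ?_, formOfGram_nondeg h⟩
  intro v
  have := hskew v v
  have h3 : (2 : F) * formOfGram id G v v = 0 := by linear_combination this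
  rcases mul_eq_zero.1 h3 with h4 | h4
  · exact absurd h4 h2
  · exact h4

theorem formOfGram_symmetric {G : Matrix κ κ F} (h : IsUnit G.det) (hs : Gᵀ = G) :
    IsSymmetricForm (formOfGram id G) := by
  refine ⟨formOfGram_bilinear G, ?_, formOfGram_nondeg h⟩
  intro v w
  rw [formOfGram_swap, hs]

end form

/-- T2 -/
theorem sp_class4 [Fintype F] (hodd : Odd (Fintype.card F)) {f : (ι → F) → (ι → F) → F}
    {H : Subgroup (GL ι F)} {a b : ℕ} (hb : 3 ≤ b) (e : ι ≃ Fin a × Fin b) (P : GL ι F)
    {G₁ : Matrix (Fin a) (Fin a) F} {G₂ : Matrix (Fin b) (Fin b) F} (hG : TensGram f e P G₁ G₂)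
    (h1 : IsUnit G₁.det) (h2 : IsUnit G₂.det) (hs1 : G₁ᵀ = -G₁) (hs2 : G₂ᵀ = G₂)
    (hHt : H ≤ tensorProductSubgroup a b e P) : SpCls f H := by
  refine Or.inr (Or.inr (Or.inr (Or.inr (Or.inr (Or.inr (Or.inr (Or.inr (Or.inr (Or.inl
    ⟨a, b, e, P, formOfGram id G₁, formOfGram id G₂, hodd, hb,
      formOfGram_symplectic (two_ne_zero_of_odd hodd) h1 hs1, formOfGram_symmetric h2 hs2,
      ⟨1, one_ne_zero, ?_⟩, hHt⟩)))))))))
  intro x y
  rw [gramMatrix_formOfGram, gramMatrix_formOfGram, one_mul]
  exact hG x y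

end Cfsg.Agent.Lib.Helper99.Sp
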