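import Cfsg.Agent.Lib.Helper90.Sp.Defs
import Cfsg.Agent.Lib.Helper35.Asch.Kron
import Cfsg.Agent.Lib.Helper55.Asch.FormCore

set_option autoImplicit false

/-! # Piece T1 of the symplectic Aschbacher campaign -/

namespace Cfsg.Agent.Lib.Helper99.Sp

open Cfsg Cfsg.Geo Matrix Cfsg.Agent.Lib.Helper13.Asch Cfsg.Agent.Lib.Helper90.Sp
open scoped Kronecker MatrixGroups

variable {ι : Type} [Fintype ι] [DecidableEq ι] {F : Type*} [Field F]

theorem formOfGram_eq_gform {κ : Type} [Fintype κ] [DecidableEq κ] (G : Matrix κ κ F) (x y : κ → F) :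
    formOfGram id G x y = gform (RingHom.id F) G x y := by
  simp only [formOfGram, gform, dotProduct, Matrix.mulVec, id, RingHom.id_apply, Finset.mul_sum, mul_assoc]

omit [DecidableEq ι] in
theorem reindex_mulVec_comp {κ : Type} [Fintype κ] [DecidableEq κ] (e : ι ≃ κ) (K : Matrix κ κ F)
    (u : κ → F) : Matrix.reindex e.symm e.symm K *ᵥ (u ∘ e) = (K *ᵥ u) ∘ e := by
  ext i
  simp only [Matrix.mulVec, dotProduct, Matrix.reindex_apply, Matrix.submatrix_apply, Equiv.symm_symm,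
    Function.comp_apply]
  exact Fintype.sum_equiv e _ _ (fun _ => rfl)

/-- the conjugate `P (K) P⁻¹` acts on `P (u ∘ e)`. -/
theorem conj_mulVec {κ : Type} [Fintype κ] [DecidableEq κ] (e : ι ≃ κ) (P : GL ι F) (K : Matrix κ κ F)
    (u : κ → F) :
    ((P : Matrix ι ι F) * Matrix.reindex e.symm e.symm K * ((P⁻¹ : GL ι F) : Matrix ι ι F)) *ᵥ
      ((P : Matrix ι ι F) *ᵥ (u ∘ e)) = (P : Matrix ι ι F) *ᵥ ((K *ᵥ u) ∘ e) := by
  rw [Matrix.mulVec_mulVec, Matrix.mul_assoc, ← Units.val_mul, inv_mul_cancel, Units.val_one, Matrix.mul_one,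
    ← Matrix.mulVec_mulVec, reindex_mulVec_comp]

/-- an isometry of the shape `P K P⁻¹` gives `Kᵀ G K = G`. -/
theorem gram_of_fix {f : (ι → F) → (ι → F) → F} {a b : ℕ}
    (e : ι ≃ Fin a × Fin b) (P : GL ι F) {G₁ : Matrix (Fin a) (Fin a) F}
    {G₂ : Matrix (Fin b) (Fin b) F} (hG : TensGram f e P G₁ G₂)
    (K : Matrix (Fin a × Fin b) (Fin a × Fin b) F)
    (hfix : ∀ u v, f (((P : Matrix ι ι F) * Matrix.reindex e.symm e.symm K * ((P⁻¹ : GL ι F) : Matrix ι ι F)) *ᵥ u)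
      (((P : Matrix ι ι F) * Matrix.reindex e.symm e.symm K * ((P⁻¹ : GL ι F) : Matrix ι ι F)) *ᵥ v) = f u v) :
    Kᵀ * (G₁ ⊗ₖ G₂) * K = G₁ ⊗ₖ G₂ := by
  apply Cfsg.Agent.Lib.Helper55.Asch.gform_ext (RingHom.id F)
  intro u v
  have h1 := hfix ((P : Matrix ι ι F) *ᵥ (u ∘ e)) ((P : Matrix ι ι F) *ᵥ (v ∘ e))
  rw [conj_mulVec, conj_mulVec, hG, hG, formOfGram_eq_gform, formOfGram_eq_gform,
    Cfsg.Agent.Lib.Helper55.Asch.gform_mulVec] at h1
  rw [← h1]
  congr 2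

/-- uniqueness of Kronecker factors. -/
theorem kron_eq_kron {a b : ℕ} {A A' : Matrix (Fin a) (Fin a) F} {B B' : Matrix (Fin b) (Fin b) F}
    (hA : A' ≠ 0) (hB : B' ≠ 0) (h : A ⊗ₖ B = A' ⊗ₖ B') :
    ∃ c : Fˣ, A = (c : F) • A' ∧ B = ((c⁻¹ : Fˣ) : F) • B' := by
  have hA' : ∃ i j, A' i j ≠ 0 := by
    by_contra hcon
    push Not at hcon
    exact hA (by ext i j; exact hcon i j)
  have hB' : ∃ i j, B' i j ≠ 0 := by
    by_contra hcon
    push Not at hcon
    exact hB (by ext i j; exact hcon i j)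
  obtain ⟨i, j, hij⟩ := hA'
  obtain ⟨k, l, hkl⟩ := hB'
  have key : ∀ i' j' k' l', A i' j' * B k' l' = A' i' j' * B' k' l' := by
    intro i' j' k' l'
    have := congrFun (congrFun h (i', k')) (j', l')
    simpa [Matrix.kroneckerMap_apply] using this
  have h0 := key i j k l
  have hBkl : B k l ≠ 0 := by
    intro h1
    rw [h1, mul_zero] at h0
    exact mul_ne_zero hij hkl h0.symm
  have hAij : A i j ≠ 0 := by
    intro h1
    rw [h1, zero_mul] at h0
    exact mul_ne_zero hij hkl h0.symm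
  refine ⟨Units.mk0 (B' k l / B k l) (div_ne_zero hkl hBkl), ?_, ?_⟩
  · ext i' j'
    have := key i' j' k l
    simp only [Units.val_mk0, Matrix.smul_apply, smul_eq_mul]
    field_simp
    linear_combination this
  · ext k' l'
    have := key i j k' l'
    simp only [Matrix.smul_apply, smul_eq_mul, Units.val_inv_eq_inv_val, Units.val_mk0]
    have e1 : A i j * B k l = A' i j * B' k l := h0
    field_simp
    have : A i j * (B k' l' * B' k l - B k l * B' k' l') = 0 := by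
      linear_combination (B' k l) * this - (B' k' l') * e1
    rcases mul_eq_zero.1 this with h2 | h2
    · exact absurd h2 hAij
    · linear_combination h2

theorem ne_zero_of_isUnit_det {n : ℕ} [Nonempty (Fin n)] {G : Matrix (Fin n) (Fin n) F} (h : IsUnit G.det) :
    G ≠ 0 := by
  rintro rfl
  rw [Matrix.det_zero] at h
  exact not_isUnit_zero h

/-- T1 -/
theorem tens_similitude [Nonempty ι] {f : (ι → F) → (ι → F) → F} {a b : ℕ}
    (e : ι ≃ Fin a × Fin b) (P : GL ι F) {G₁ : Matrix (Fin a) (Fin a) F}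
    {G₂ : Matrix (Fin b) (Fin b) F} (hG : TensGram f e P G₁ G₂) (h1 : IsUnit G₁.det)
    (h2 : IsUnit G₂.det) (h : GL ι F) (hh : h ∈ tensorProductSubgroup a b e P)
    (hfix : ∀ u v, f ((h : Matrix ι ι F) *ᵥ u) ((h : Matrix ι ι F) *ᵥ v) = f u v) :
    ∃ (x : GL (Fin a) F) (y : GL (Fin b) F) (c : Fˣ),
      (h : Matrix ι ι F) = (P : Matrix ι ι F) *
        Matrix.reindex e.symm e.symm ((x : Matrix _ _ F) ⊗ₖ (y : Matrix _ _ F)) *
        ((P⁻¹ : GL ι F) : Matrix ι ι F) ∧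
      (x : Matrix _ _ F)ᵀ * G₁ * (x : Matrix _ _ F) = (c : F) • G₁ ∧
      (y : Matrix _ _ F)ᵀ * G₂ * (y : Matrix _ _ F) = ((c⁻¹ : Fˣ) : F) • G₂ := by
  obtain ⟨x, y, hxy⟩ := (Cfsg.Agent.Lib.Helper35.Asch.mem_tensor_iff e P h).1 hh
  obtain ⟨i0⟩ := ‹Nonempty ι›
  have : Nonempty (Fin a) := ⟨(e i0).1⟩
  have : Nonempty (Fin b) := ⟨(e i0).2⟩
  rw [hxy] at hfix
  have hk := gram_of_fix e P hG _ hfix
  rw [← Matrix.kroneckerMap_transpose, ← Matrix.mul_kronecker_mul, ← Matrix.mul_kronecker_mul] at hk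
  obtain ⟨c, hc1, hc2⟩ := kron_eq_kron (ne_zero_of_isUnit_det h1) (ne_zero_of_isUnit_det h2) hk
  exact ⟨x, y, c, hxy, hc1, hc2⟩

end Cfsg.Agent.Lib.Helper99.Sp
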