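import Cfsg.Agent.Lib.Helper99.Sp.T3a

set_option autoImplicit false

/-! # Piece T3 of the symplectic Aschbacher campaign (main argument, with SD as a hypothesis) -/

namespace Cfsg.Agent.Lib.Helper99.Sp

open Cfsg Cfsg.Geo Matrix Cfsg.Agent.Lib.Helper13.Asch Cfsg.Agent.Lib.Helper90.Sp
open scoped Kronecker MatrixGroups

variable {ι : Type} [Fintype ι] [DecidableEq ι] {F : Type*} [Field F]

/-- the skew element of a binary symmetric form. -/
def kap (G : Matrix (Fin 2) (Fin 2) F) : Matrix (Fin 2) (Fin 2) F := !![G 0 1, G 1 1; -G 0 0, -G 0 1]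

/-- the standard alternating matrix. -/
def JJ (F : Type*) [Field F] : Matrix (Fin 2) (Fin 2) F := !![0, 1; -1, 0]

omit [Field F] in
theorem sym10 {G : Matrix (Fin 2) (Fin 2) F} (hs : Gᵀ = G) : G 1 0 = G 0 1 := by
  have := congrFun (congrFun hs 0) 1
  simpa using this

theorem G_kap {G : Matrix (Fin 2) (Fin 2) F} (hs : Gᵀ = G) : G * kap G = G.det • JJ F := by
  have h10 := sym10 hs
  ext i j
  fin_cases i <;> fin_cases j <;>
    simp [kap, JJ, Matrix.mul_apply, Fin.sum_univ_two, Matrix.det_fin_two, h10] <;> ring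

theorem kapT_G {G : Matrix (Fin 2) (Fin 2) F} (hs : Gᵀ = G) : (kap G)ᵀ * G = -(G * kap G) := by
  have h10 := sym10 hs
  ext i j
  fin_cases i <;> fin_cases j <;>
    simp [kap, Matrix.mul_apply, Fin.sum_univ_two, h10]

theorem kap_sq {G : Matrix (Fin 2) (Fin 2) F} (hs : Gᵀ = G) : kap G * kap G = (-G.det) • 1 := by
  have h10 := sym10 hs
  ext i j
  fin_cases i <;> fin_cases j <;>
    simp [kap, Matrix.mul_apply, Fin.sum_univ_two, Matrix.det_fin_two, h10] <;> ring

theorem kap_not_scalar (h2 : (2 : F) ≠ 0) {G : Matrix (Fin 2) (Fin 2) F} (hs : Gᵀ = G) (hd : IsUnit G.det)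
    (c : F) : kap G ≠ c • 1 := by
  intro h
  have h10 := sym10 hs
  have e00 := congrFun (congrFun h 0) 0
  have e01 := congrFun (congrFun h 0) 1
  have e10 := congrFun (congrFun h 1) 0
  have e11 := congrFun (congrFun h 1) 1
  simp [kap] at e00 e01 e10 e11
  have hb : G 0 1 = 0 := by
    have : (2 : F) * G 0 1 = 0 := by linear_combination e00 - e11
    rcases mul_eq_zero.1 this with h3 | h3
    · exact absurd h3 h2
    · exact h3
  rw [Matrix.det_fin_two, e01, e10, hb] at hd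
  simp at hd

theorem yJy (y : Matrix (Fin 2) (Fin 2) F) : yᵀ * JJ F * y = y.det • JJ F := by
  ext i j
  fin_cases i <;> fin_cases j <;>
    simp [JJ, Matrix.mul_apply, Fin.sum_univ_two, Matrix.det_fin_two] <;> ring

theorem kap_conj {G y : Matrix (Fin 2) (Fin 2) F} (hs : Gᵀ = G) (hd : IsUnit G.det) (hy : IsUnit y.det) {c : F}
    (hc : yᵀ * G * y = c • G) : y * kap G = (c / y.det) • (kap G * y) := by
  have hA : IsUnit (yᵀ * G) := by
    rw [Matrix.isUnit_iff_isUnit_det, Matrix.det_mul, Matrix.det_transpose]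
    exact hy.mul hd
  have key : c • (kap G * y) = y.det • (y * kap G) := by
    apply hA.mul_left_cancel
    have e1 : yᵀ * G * (c • (kap G * y)) = (c * G.det * y.det) • JJ F := by
      rw [Matrix.mul_smul]
      have : yᵀ * G * (kap G * y) = yᵀ * (G * kap G) * y := by simp only [Matrix.mul_assoc]
      rw [this, G_kap hs, Matrix.mul_smul, Matrix.smul_mul, yJy, smul_smul, smul_smul, mul_assoc]
    have e2 : yᵀ * G * (y.det • (y * kap G)) = (c * G.det * y.det) • JJ F := by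
      rw [Matrix.mul_smul, ← Matrix.mul_assoc, hc, Matrix.smul_mul, G_kap hs, smul_smul, smul_smul]
      congr 1
      ring
    rw [e1, e2]
  have hy0 : y.det ≠ 0 := hy.ne_zero
  rw [div_eq_mul_inv, mul_comm, mul_smul, key, smul_smul, inv_mul_cancel₀ hy0, one_smul]

/-- T3 with SD as a hypothesis. -/
theorem sp_tensor_two_aux [Fintype F] [Nonempty ι] (hodd : Odd (Fintype.card F))
    {f : (ι → F) → (ι → F) → F} (hf : IsSymplecticForm f) {H : Subgroup (GL ι F)}
    (hH : FixesForm (matrixSet H) f) {a : ℕ}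
    (e : ι ≃ Fin a × Fin 2) (P : GL ι F) {G₁ : Matrix (Fin a) (Fin a) F}
    {G₂ : Matrix (Fin 2) (Fin 2) F} (hG : TensGram f e P G₁ G₂) (h1 : IsUnit G₁.det)
    (h2 : IsUnit G₂.det) (hs2 : G₂ᵀ = G₂)
    (hHt : H ≤ tensorProductSubgroup a 2 e P)
    (hSD : ∀ Z : Subalgebra F (Matrix ι ι F), H ≤ subalgebraNormalizer Z →
      (∀ x ∈ Z, ∀ y ∈ Z, x * y = y * x) → IsAdjointClosedFor f Z →
      SpCls f H ∨ (∀ x ∈ Z, x ≠ 0 → ∃ y ∈ Z, x * y = 1)) : SpCls f H := by
  have h20 : (2 : F) ≠ 0 := two_ne_zero_of_odd hodd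
  obtain ⟨i0⟩ := ‹Nonempty ι›
  have hι : Nonempty ι := ⟨i0⟩
  set K : Matrix (Fin a × Fin 2) (Fin a × Fin 2) F := (1 : Matrix (Fin a) (Fin a) F) ⊗ₖ kap G₂ with hK
  set k : Matrix ι ι F := cj e P K with hkdef
  have hk : k * k = (-G₂.det) • 1 := by
    rw [hkdef, cj_mul, hK, ← Matrix.mul_kronecker_mul, Matrix.one_mul, kap_sq hs2, Matrix.kronecker_smul,
      Matrix.one_kronecker_one, cj_smul, cj_one]
  have hns : ∀ c : F, k ≠ c • 1 := by
    intro c hc
    have e1 : cj e P K = cj e P (c • (1 : Matrix (Fin a × Fin 2) (Fin a × Fin 2) F)) := by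
      rw [cj_smul, cj_one]; exact hc
    have e2 := cj_injective e P e1
    apply kap_not_scalar h20 hs2 h2 c
    ext r s
    have := congrFun (congrFun e2 ((e i0).1, r)) ((e i0).1, s)
    simp only [hK, Matrix.kroneckerMap_apply, Matrix.one_apply_eq, one_mul, Matrix.smul_apply, smul_eq_mul] at this
    rw [this, Matrix.smul_apply, smul_eq_mul]
    congr 1
    by_cases hrs : r = s
    · subst hrs; simp
    · rw [Matrix.one_apply_ne hrs, Matrix.one_apply_ne]
      intro h
      exact hrs (Prod.ext_iff.1 h).2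
  have hKG : Kᵀ * (G₁ ⊗ₖ G₂) = -((G₁ ⊗ₖ G₂) * K) := by
    rw [hK, ← Matrix.kroneckerMap_transpose, ← Matrix.mul_kronecker_mul, ← Matrix.mul_kronecker_mul,
      Matrix.transpose_one, Matrix.one_mul, Matrix.mul_one, kapT_G hs2]
    ext p q
    simp [Matrix.kroneckerMap_apply]
  have hadjk : ∀ u v, f (k *ᵥ u) v = - f u (k *ᵥ v) := by
    intro u v
    obtain ⟨u', rfl⟩ := exists_coord e P u
    obtain ⟨v', rfl⟩ := exists_coord e P v
    rw [hkdef, cj_mulVec, cj_mulVec, hG, hG, formOfGram_eq_gform, formOfGram_eq_gform]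
    simp only [gform, RingHom.id_apply]
    have hGK : (G₁ ⊗ₖ G₂) * K = -(Kᵀ * (G₁ ⊗ₖ G₂)) := by rw [hKG, neg_neg]
    rw [Matrix.mulVec_mulVec, hGK, Matrix.neg_mulVec, dotProduct_neg, neg_neg,
      ← Matrix.mulVec_mulVec, Matrix.dotProduct_mulVec u' Kᵀ, Matrix.vecMul_transpose]
  have hadj : IsAdjointClosedFor f (Zk k (-G₂.det) hk) := by
    rintro _ ⟨x, y, rfl⟩
    refine ⟨x • 1 + (-y) • k, ⟨x, -y, rfl⟩, ?_⟩
    intro u v
    rw [Matrix.add_mulVec, Matrix.add_mulVec, Matrix.smul_mulVec, Matrix.smul_mulVec, Matrix.smul_mulVec,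
      Matrix.smul_mulVec, Matrix.one_mulVec, Matrix.one_mulVec, hf.bilinear.add_left, hf.bilinear.add_right,
      hf.bilinear.smul_left, hf.bilinear.smul_left, hf.bilinear.smul_right, hf.bilinear.smul_right, hadjk]
    ring
  have hnorm : H ≤ subalgebraNormalizer (Zk k (-G₂.det) hk) := by
    intro h hh
    obtain ⟨x, y, c, hxy, _, hc2⟩ := tens_similitude e P hG h1 h2 h (hHt hh)
      (hH (h : Matrix ι ι F) ⟨h, hh, rfl⟩)
    have hy : IsUnit (y : Matrix (Fin 2) (Fin 2) F).det := (Matrix.isUnit_iff_isUnit_det _).1 y.isUnit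
    have hcj : (h : Matrix ι ι F) = cj e P ((x : Matrix _ _ F) ⊗ₖ (y : Matrix _ _ F)) := hxy
    have hμ : ((c⁻¹ : Fˣ) : F) / (y : Matrix (Fin 2) (Fin 2) F).det ≠ 0 :=
      div_ne_zero (Units.ne_zero _) hy.ne_zero
    refine Zk_normalizer hμ ?_
    rw [hcj, hkdef, cj_mul, cj_mul, hK, ← Matrix.mul_kronecker_mul, ← Matrix.mul_kronecker_mul, Matrix.mul_one,
      Matrix.one_mul, kap_conj hs2 h2 hy hc2, Matrix.kronecker_smul, cj_smul]
  rcases hSD _ hnorm Zk_comm hadj with h | hinv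
  · exact h
  · refine Or.inr (Or.inr (Or.inr (Or.inr (Or.inr (Or.inr (Or.inr (Or.inr (Or.inl
      ⟨Zk k (-G₂.det) hk, hodd, ⟨Zk_comm, hinv, Zk_finrank hns⟩, hadj, ?_, hnorm⟩))))))))
    intro hsa
    have hz : ∀ u v, f u (k *ᵥ v) = 0 := by
      intro u v
      have e1 := hsa k ⟨0, 1, by rw [zero_smul, zero_add, one_smul]⟩ u v
      rw [hadjk] at e1
      have : (2 : F) * f u (k *ᵥ v) = 0 := by linear_combination -e1
      rcases mul_eq_zero.1 this with h3 | h3
      · exact absurd h3 h20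
      · exact h3
    apply hns 0
    rw [zero_smul]
    ext i j
    by_contra hij
    have hne : k *ᵥ (Pi.single j 1) ≠ 0 := by
      intro h0
      apply hij
      have := congrFun h0 i
      simpa using this
    obtain ⟨⟨x, hx⟩, _⟩ := hf.nondegenerate _ hne
    exact hx (hz x _)

end Cfsg.Agent.Lib.Helper99.Sp
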