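import Cfsg.Agent.Lib.Helper78.Sp.E00
import Cfsg.Agent.Lib.Helper73.Asch.D1g
import Cfsg.Agent.Lib.Helper99.Sp.T1

set_option autoImplicit false

/-! # Sp rows, E1k: `Sp` is not contained in a tensor wreath subgroup (helper99) -/

namespace Cfsg.Agent.Lib.Helper99.Sp

open Cfsg Cfsg.Geo Matrix Cfsg.Agent.Lib.Helper13.Asch Cfsg.Agent.Lib.Helper90.Sp
open Cfsg.Agent.Lib.Helper73.Asch
open scoped Kronecker MatrixGroups

variable {ι : Type} [Fintype ι] [DecidableEq ι] {F : Type*} [Field F]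

theorem embed_injective {κ : Type} [Fintype κ] [DecidableEq κ] (e : ι ≃ κ) (P : GL ι F)
    {x y : κ → F} (h : (P : Matrix ι ι F) *ᵥ (x ∘ e) = (P : Matrix ι ι F) *ᵥ (y ∘ e)) : x = y := by
  have h1 : ((P⁻¹ : GL ι F) : Matrix ι ι F) *ᵥ ((P : Matrix ι ι F) *ᵥ (x ∘ e)) =
      ((P⁻¹ : GL ι F) : Matrix ι ι F) *ᵥ ((P : Matrix ι ι F) *ᵥ (y ∘ e)) := by rw [h]
  rw [Matrix.mulVec_mulVec, Matrix.mulVec_mulVec, ← Units.val_mul, inv_mul_cancel, Units.val_one,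
    Matrix.one_mulVec, Matrix.one_mulVec] at h1
  funext a
  have := congrFun h1 (e.symm a)
  simpa using this

/-- E1k -/
theorem sp_not_le_wreath {m k t : ℕ} (hk : 2 ≤ k) (ht : 2 ≤ t)
    (e : (Fin m ⊕ Fin m) ≃ (Fin t → Fin k)) (P : GL (Fin m ⊕ Fin m) F) :
    ¬ spGL m F ≤ tensorWreathSubgroup k t e P := by
  intro h
  obtain ⟨k, rfl⟩ : ∃ m', k = m' + 2 := ⟨k - 2, by omega⟩
  obtain ⟨t, rfl⟩ : ∃ t', t = t' + 1 + 1 := ⟨t - 2, by omega⟩
  set x0 : Fin (t + 1 + 1) → Fin (k + 2) := Fin.cons 0 (fun _ => 0) with hx0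
  set y0 : Fin (t + 1 + 1) → Fin (k + 2) := Fin.cons 1 (fun _ => 1) with hy0
  set x1 : Fin (t + 1 + 1) → Fin (k + 2) := Fin.cons 1 (fun _ => 0) with hx1
  set y1 : Fin (t + 1 + 1) → Fin (k + 2) := Fin.cons 0 (fun _ => 1) with hy1
  have h01 : (0 : Fin (k + 2)) ≠ 1 := by
    intro h; simpa using congrArg Fin.val h
  have hne : x0 ≠ y0 := fun h => h01 (by simpa [hx0, hy0] using congrFun h 0)
  have hx1x0 : x1 ≠ x0 := fun h => h01 (by simpa [hx0, hx1] using (congrFun h 0).symm)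
  have hx1y0 : x1 ≠ y0 := fun h => h01 (by simpa [hy0, hx1] using congrFun h 1)
  set a : (Fin (t + 1 + 1) → Fin (k + 2)) → F := Pi.single x0 1 with ha
  set c : (Fin (t + 1 + 1) → Fin (k + 2)) → F := Pi.single x0 1 + Pi.single y0 1 with hc
  have ha0 : a ≠ 0 := by
    intro h0
    have := congrFun h0 x0
    simp [ha] at this
  have hc0 : c ≠ 0 := by
    intro h0
    have := congrFun h0 x0
    simp [hc, Pi.single_eq_of_ne hne] at this
  have hz : (P : Matrix (Fin m ⊕ Fin m) (Fin m ⊕ Fin m) F) *ᵥ ((0 : (Fin (t + 1 + 1) → Fin (k + 2)) → F) ∘ e) = 0 := by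
    have : ((0 : (Fin (t + 1 + 1) → Fin (k + 2)) → F) ∘ e) = 0 := by funext i; rfl
    rw [this, Matrix.mulVec_zero]
  have hv : (P : Matrix (Fin m ⊕ Fin m) (Fin m ⊕ Fin m) F) *ᵥ (a ∘ e) ≠ 0 := by
    intro h0
    exact ha0 (embed_injective e P (h0.trans hz.symm))
  have hw : (P : Matrix (Fin m ⊕ Fin m) (Fin m ⊕ Fin m) F) *ᵥ (c ∘ e) ≠ 0 := by
    intro h0
    exact hc0 (embed_injective e P (h0.trans hz.symm))
  obtain ⟨g, hg, hgv⟩ := Cfsg.Agent.Lib.Helper78.Sp.exists_spGL_map m _ _ hv hw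
  obtain ⟨_, ⟨g0, hg0, rfl⟩, hg2⟩ := h hg
  have hg3 : (g : Matrix (Fin m ⊕ Fin m) (Fin m ⊕ Fin m) F) = (P : Matrix (Fin m ⊕ Fin m) (Fin m ⊕ Fin m) F) *
      Matrix.reindex e.symm e.symm (g0 : Matrix (Fin (t + 1 + 1) → Fin (k + 2)) (Fin (t + 1 + 1) → Fin (k + 2)) F) * ((P⁻¹ : GL (Fin m ⊕ Fin m) F) : Matrix (Fin m ⊕ Fin m) (Fin m ⊕ Fin m) F) := by
    rw [← hg2]; rfl
  rw [hg3, conj_mulVec] at hgv
  have hgc : (g0 : Matrix (Fin (t + 1 + 1) → Fin (k + 2)) (Fin (t + 1 + 1) → Fin (k + 2)) F) *ᵥ a = c := embed_injective e P hgv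
  have hp := wreath_pureVec hg0 a ⟨fun i => Pi.single (x0 i) 1, fun x => by
    by_cases hx : x = x0
    · subst hx; simp [ha]
    · rw [ha, Pi.single_eq_of_ne hx]
      obtain ⟨i, hi⟩ := Function.ne_iff.1 hx
      exact (Finset.prod_eq_zero (Finset.mem_univ i) (by
        show (Pi.single (x0 i) (1 : F) : Fin (k + 2) → F) (x i) = 0
        rw [Pi.single_eq_of_ne hi])).symm⟩
  rw [hgc] at hp
  have hval : ∀ x, c x = (if x = x0 then 1 else 0) + (if x = y0 then 1 else 0) := by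
    intro x
    simp [hc, Pi.single_apply]
  have hrel := pureVec_rel hp 0 1 (fun _ => 0) (fun _ => 1)
  rw [hval, hval, hval, hval] at hrel
  rw [if_pos rfl, if_neg hne, if_neg hne.symm, if_pos rfl, if_neg hx1x0, if_neg hx1y0] at hrel
  simp at hrel

end Cfsg.Agent.Lib.Helper99.Sp
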