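import Cfsg.Agent.Lib.Helper94.TensF3
import Cfsg.Agent.Lib.Helper94.SympF2
import Cfsg.Agent.Lib.Helper94.SympDecompWrap

set_option autoImplicit false

/-! # Sp rows, E3c: over `F_3` the group `Sp ⊗ O_3` is imprimitive (helper99) -/

namespace Cfsg.Agent.Lib.Helper99.Sp

open Cfsg Cfsg.Geo Matrix
open Cfsg.Agent.Lib.Helper94 Cfsg.Agent.Lib.Helper94.Tens Cfsg.Agent.Lib.Helper94.U
open scoped Kronecker MatrixGroups

theorem indep_of_orth {F V κ : Type*} [Field F] [AddCommGroup V] [Module F V]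
    {B : LinearMap.BilinForm F V} {D : κ → Submodule F V}
    (hnd : ∀ i, ∀ w ∈ D i, w ≠ 0 → ∃ x ∈ D i, B x w ≠ 0)
    (hort : ∀ i j, i ≠ j → ∀ u ∈ D i, ∀ v ∈ D j, B u v = 0) : iSupIndep D := by
  intro i
  rw [Submodule.disjoint_def]
  intro x hx hx2
  by_contra hx0
  obtain ⟨u, hu, hux⟩ := hnd i x hx hx0
  have hle : (⨆ j, ⨆ (_ : j ≠ i), D j) ≤ B.orthogonal (D i) := iSup₂_le (fun j hj v hv => by
    rw [LinearMap.BilinForm.mem_orthogonal_iff]
    intro n hn
    exact hort i j (Ne.symm hj) n hn v hv)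
  exact hux ((LinearMap.BilinForm.mem_orthogonal_iff.1 (hle hx2)) u hu)

variable {F : Type*} [Field F]

/-- E3c (the hypothesis `1 ≤ m` is necessary: for `m = 0` we get `n₁ = 0`, and an
`m`-decomposition has blocks of positive dimension). -/
theorem sp_tensor_three [Fintype F] (hq : Fintype.card F = 3) {m n₁ : ℕ} (hm : 1 ≤ m)
    (e : (Fin m ⊕ Fin m) ≃ Fin n₁ × Fin 3) (P : GL (Fin m ⊕ Fin m) F)
    (f₁ : (Fin n₁ → F) → (Fin n₁ → F) → F) (f₂ : (Fin 3 → F) → (Fin 3 → F) → F)
    (h1 : IsSymplecticForm f₁) (h2 : IsSymmetricForm f₂)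
    (hstr : IsTensorFormStructure id (sympForm m F) f₁ f₂ e P) :
    ∃ D : Fin 3 → Submodule F (Fin m ⊕ Fin m → F),
      IsNondegenerateMDecomposition (sympForm m F) n₁ D ∧
      tensorProductSubgroup n₁ 3 e P ⊓ spGL m F ≤ decompositionStabilizer D := by
  classical
  have h30 := card3_three hq
  have h3 := card3_cases hq
  set s : LinearMap.BilinForm F (Fin 3 → F) := formB f₂ h2.bilinear with hs
  obtain ⟨w, ε, hε, hn, ho⟩ := exists_equal_norm h3 h30 s (fun x y => h2.symm x y)
    (formB_nondegenerate _ _ h2.nondegenerate) (by simp)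
  have hli : LinearIndependent F w :=
    LinearMap.BilinForm.linearIndependent_of_iIsOrtho (B := s) ho (fun i => by rw [hn]; exact hε)
  let a : Module.Basis (Fin 3) F (Fin 3 → F) := basisOfLinearIndependentOfCardEqFinrank hli (by simp)
  have ha : ∀ i, a i = w i := fun i => by simp [a]
  have hn' : ∀ i, s (a i) (a i) = ε := fun i => by rw [ha]; exact hn i
  have ho' : ∀ i j, i ≠ j → s (a i) (a j) = 0 := fun i j hij => by rw [ha, ha]; exact ho i j hij
  set T := (pt e P).flip with hTdef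
  have hU : Function.Injective (Th T a) := by
    rw [injective_iff_map_eq_zero]
    intro y hy
    rw [Th_apply] at hy
    funext i
    exact sum_pt_flip_eq_zero e P a a.linearIndependent y hy i
  obtain ⟨c, hc, hform⟩ := form_pt (Cfsg.sympForm m F) f₁ f₂ h1.bilinear h2.bilinear e P hstr
  have hB : ∀ x y x' y', sympForm m F (T x y) (T x' y') = c * (f₁ y y' * f₂ x x') := by
    intro x y x' y'
    exact hform y x y' x'
  have hcard : 2 * m = n₁ * 3 := by
    have := Fintype.card_congr e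
    simp at this
    omega
  have hn₁ : 0 < n₁ := by omega
  have hTinj : ∀ i, Function.Injective (T (a i)) := by
    intro i y y' hyy
    rw [← Th_single, ← Th_single] at hyy
    exact Pi.single_injective i (hU hyy)
  have hsurj : Function.Surjective (Th T a) := by
    apply (LinearMap.injective_iff_surjective_of_finrank_eq_finrank ?_).1 hU
    rw [Module.finrank_pi_fintype, Module.finrank_fintype_fun_eq_card]
    simp only [Module.finrank_fintype_fun_eq_card, Fintype.card_fin, Finset.sum_const,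
      Finset.card_univ, smul_eq_mul, Fintype.card_sum]
    omega
  set D : Fin 3 → Submodule F (Fin m ⊕ Fin m → F) := fun i => LinearMap.range (T (a i)) with hD
  have hnd : ∀ i, IsNondegenerateOn (sympForm m F) (D i) := by
    rintro i _ ⟨y, rfl⟩ hy0
    have hy : y ≠ 0 := by
      rintro rfl
      exact hy0 (map_zero _)
    obtain ⟨⟨x, hx⟩, ⟨x', hx'⟩⟩ := h1.nondegenerate y hy
    refine ⟨⟨T (a i) x, ⟨x, rfl⟩, ?_⟩, ⟨T (a i) x', ⟨x', rfl⟩, ?_⟩⟩
    · rw [hB]
      exact mul_ne_zero hc (mul_ne_zero hx (by rw [show f₂ (a i) (a i) = ε from hn' i]; exact hε))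
    · rw [hB]
      exact mul_ne_zero hc (mul_ne_zero hx' (by rw [show f₂ (a i) (a i) = ε from hn' i]; exact hε))
  have hort : ∀ i j, i ≠ j → AreOrthogonalFor (sympForm m F) (D i) (D j) := by
    rintro i j hij _ ⟨y, rfl⟩ _ ⟨y', rfl⟩
    rw [hB, show f₂ (a i) (a j) = 0 from ho' i j hij]
    ring
  have hfr : ∀ i, Module.finrank F (D i) = n₁ := by
    intro i
    rw [hD]
    show Module.finrank F (LinearMap.range (T (a i))) = n₁
    rw [LinearMap.finrank_range_of_inj (hTinj i)]
    simp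
  refine ⟨D, ⟨⟨by norm_num, hn₁, hfr, ?_, ?_⟩, hnd, hort⟩, ?_⟩
  · apply indep_of_orth (B := sympB m F)
    · intro i w hw hw0
      obtain ⟨⟨x, hx, hxw⟩, _⟩ := hnd i w hw hw0
      exact ⟨x, hx, by rw [sympB_apply]; exact hxw⟩
    · intro i j hij u hu v hv
      rw [sympB_apply]
      exact hort i j hij u hu v hv
  · rw [eq_top_iff]
    intro v _
    obtain ⟨y, rfl⟩ := hsurj v
    rw [Th_apply]
    apply Submodule.sum_mem
    intro i _
    exact (le_iSup D i) ⟨y i, rfl⟩
  · intro g hg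
    rw [mem_decompositionStabilizer_iff]
    set φ := glEquiv _ F g with hφ
    have hI : IsIsom (sympB m F) φ := (mem_spGL_iff m g).1 hg.2
    have hst : (glEquiv _ F).symm φ ∈ tensorProductSubgroup n₁ 3 e P := by
      rw [hφ, MulEquiv.symm_apply_apply]; exact hg.1
    obtain ⟨A, B, hAB⟩ := exists_of_symm_mem e P φ hst
    have hT' : ∀ x y, φ (T x y) = T (B x) (A y) := fun x y => hAB y x
    obtain ⟨u, hu⟩ : ∃ u : Fin n₁ → F, u ≠ 0 := by
      refine ⟨Pi.single ⟨0, hn₁⟩ 1, ?_⟩
      intro h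
      have := congrFun h ⟨0, hn₁⟩
      simp at this
    obtain ⟨y₀, hy₀⟩ := (h1.nondegenerate u hu).1
    obtain ⟨μ, hμ, hsim⟩ := simil_of_isom f₁ f₂ A B (by
        intro y y' x x'
        have := hI (T x y) (T x' y')
        rw [hT', hT', sympB_apply, sympB_apply, hB, hB] at this
        exact mul_left_cancel₀ hc this) ⟨y₀, u, hy₀⟩
        ⟨a 0, a 0, by rw [show f₂ (a 0) (a 0) = ε from hn' 0]; exact hε⟩
    have hfrm := simil_frame h3 h30 s a ε hε hn' ho' B μ hμ hsim
    choose σ0 cc hσ0 using hfrm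
    have hmap : ∀ i, (D i).map (φ : (Fin m ⊕ Fin m → F) →ₗ[F] (Fin m ⊕ Fin m → F)) = D (σ0 i) := by
      intro i
      apply map_eq_of_forall_mem _ _ _ ((hfr i).trans (hfr _).symm)
      rintro _ ⟨y, rfl⟩
      rw [hT', hσ0, map_smul, LinearMap.smul_apply, ← map_smul]
      exact ⟨_, rfl⟩
    have hinj : Function.Injective σ0 := by
      intro i i' hii
      by_contra hne
      have h1' : (D i).map (φ : (Fin m ⊕ Fin m → F) →ₗ[F] (Fin m ⊕ Fin m → F)) = (D i').map (φ : (Fin m ⊕ Fin m → F) →ₗ[F] (Fin m ⊕ Fin m → F)) := by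
        rw [hmap, hmap, hii]
      have hDD : D i = D i' :=
        Submodule.map_injective_of_injective (f := (φ : (Fin m ⊕ Fin m → F) →ₗ[F] (Fin m ⊕ Fin m → F))) φ.injective h1'
      have hmem : T (a i) u ∈ D i := ⟨u, rfl⟩
      have hne0 : T (a i) u ≠ 0 := by
        intro h0
        exact hu (hTinj i (h0.trans (map_zero _).symm))
      obtain ⟨⟨z, hz, hze⟩, _⟩ := hnd i _ hmem hne0
      exact hze (hort i i' hne z hz _ (hDD ▸ hmem))
    exact ⟨Equiv.ofBijective σ0 (Finite.injective_iff_bijective.1 hinj), fun i => hmap i⟩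

end Cfsg.Agent.Lib.Helper99.Sp
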