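import Cfsg.Agent.Lib.Helper99.Sp.T2

set_option autoImplicit false

/-! # Piece T3 of the symplectic Aschbacher campaign (core, with SD as a hypothesis) -/

namespace Cfsg.Agent.Lib.Helper99.Sp

open Cfsg Cfsg.Geo Matrix Cfsg.Agent.Lib.Helper13.Asch Cfsg.Agent.Lib.Helper90.Sp
open scoped Kronecker MatrixGroups

variable {ι : Type} [Fintype ι] [DecidableEq ι] {F : Type*} [Field F]

/-- `P K P⁻¹`. -/
def cj {κ : Type} [Fintype κ] [DecidableEq κ] (e : ι ≃ κ) (P : GL ι F) (K : Matrix κ κ F) : Matrix ι ι F :=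
  (P : Matrix ι ι F) * Matrix.reindex e.symm e.symm K * ((P⁻¹ : GL ι F) : Matrix ι ι F)

section cj

variable {κ : Type} [Fintype κ] [DecidableEq κ] (e : ι ≃ κ) (P : GL ι F)

theorem cj_mul (K L : Matrix κ κ F) : cj e P K * cj e P L = cj e P (K * L) := by
  unfold cj
  have h : ((P⁻¹ : GL ι F) : Matrix ι ι F) * (P : Matrix ι ι F) = 1 := by
    rw [← Units.val_mul, inv_mul_cancel, Units.val_one]
  calc (P : Matrix ι ι F) * Matrix.reindex e.symm e.symm K * ((P⁻¹ : GL ι F) : Matrix ι ι F) *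
        ((P : Matrix ι ι F) * Matrix.reindex e.symm e.symm L * ((P⁻¹ : GL ι F) : Matrix ι ι F))
      = (P : Matrix ι ι F) * Matrix.reindex e.symm e.symm K *
          (((P⁻¹ : GL ι F) : Matrix ι ι F) * (P : Matrix ι ι F)) * Matrix.reindex e.symm e.symm L *
          ((P⁻¹ : GL ι F) : Matrix ι ι F) := by simp only [Matrix.mul_assoc]
    _ = (P : Matrix ι ι F) * (Matrix.reindex e.symm e.symm K * Matrix.reindex e.symm e.symm L) *
          ((P⁻¹ : GL ι F) : Matrix ι ι F) := by rw [h, Matrix.mul_one]; simp only [Matrix.mul_assoc]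
    _ = _ := by
        congr 2
        simp only [Matrix.reindex_apply]
        rw [Matrix.submatrix_mul_equiv]

theorem cj_smul (c : F) (K : Matrix κ κ F) : cj e P (c • K) = c • cj e P K := by
  unfold cj
  have : Matrix.reindex e.symm e.symm (c • K) = c • Matrix.reindex e.symm e.symm K := rfl
  rw [this, Matrix.mul_smul, Matrix.smul_mul]

theorem cj_one : cj e P (1 : Matrix κ κ F) = 1 := by
  unfold cj
  simp only [Matrix.reindex_apply, Matrix.submatrix_one_equiv, Matrix.mul_one]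
  rw [← Units.val_mul, mul_inv_cancel, Units.val_one]

theorem cj_injective {K L : Matrix κ κ F} (h : cj e P K = cj e P L) : K = L := by
  unfold cj at h
  have h1 : ((P⁻¹ : GL ι F) : Matrix ι ι F) * (P : Matrix ι ι F) = 1 := by
    rw [← Units.val_mul, inv_mul_cancel, Units.val_one]
  have h2 : Matrix.reindex e.symm e.symm K = Matrix.reindex e.symm e.symm L := by
    have := congrArg (fun X => ((P⁻¹ : GL ι F) : Matrix ι ι F) * X * (P : Matrix ι ι F)) h
    simp only [Matrix.mul_assoc, h1, Matrix.mul_one] at this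
    simp only [← Matrix.mul_assoc, h1, Matrix.one_mul] at this
    exact this
  exact (Matrix.reindex e.symm e.symm).injective h2

theorem cj_mulVec (K : Matrix κ κ F) (u : κ → F) :
    cj e P K *ᵥ ((P : Matrix ι ι F) *ᵥ (u ∘ e)) = (P : Matrix ι ι F) *ᵥ ((K *ᵥ u) ∘ e) :=
  conj_mulVec e P K u

omit [Fintype κ] [DecidableEq κ] in
theorem exists_coord (u : ι → F) : ∃ u' : κ → F, u = (P : Matrix ι ι F) *ᵥ (u' ∘ e) := by
  refine ⟨(((P⁻¹ : GL ι F) : Matrix ι ι F) *ᵥ u) ∘ e.symm, ?_⟩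
  have : ((((P⁻¹ : GL ι F) : Matrix ι ι F) *ᵥ u) ∘ e.symm) ∘ e = ((P⁻¹ : GL ι F) : Matrix ι ι F) *ᵥ u := by
    ext i; simp
  rw [this, Matrix.mulVec_mulVec, ← Units.val_mul, mul_inv_cancel, Units.val_one, Matrix.one_mulVec]

end cj

theorem embR_eq_cj {a b : ℕ} (e : ι ≃ Fin a × Fin b) (P : GL ι F) (Y : Matrix (Fin b) (Fin b) F) :
    embR e P Y = cj e P ((1 : Matrix (Fin a) (Fin a) F) ⊗ₖ Y) := rfl

/-- the subalgebra `F + F k` when `k² ∈ F`. -/
def Zk (k : Matrix ι ι F) (d : F) (hk : k * k = d • 1) : Subalgebra F (Matrix ι ι F) where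
  carrier := {z | ∃ x y : F, z = x • 1 + y • k}
  mul_mem' := by
    rintro _ _ ⟨x, y, rfl⟩ ⟨x', y', rfl⟩
    refine ⟨x * x' + y * y' * d, x * y' + y * x', ?_⟩
    simp only [Matrix.add_mul, Matrix.mul_add, Matrix.smul_mul, Matrix.mul_smul, Matrix.one_mul, Matrix.mul_one,
      hk, smul_smul, add_smul]
    module
  add_mem' := by
    rintro _ _ ⟨x, y, rfl⟩ ⟨x', y', rfl⟩
    exact ⟨x + x', y + y', by module⟩
  algebraMap_mem' c := ⟨c, 0, by rw [zero_smul, add_zero, Algebra.algebraMap_eq_smul_one]⟩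

theorem mem_Zk {k : Matrix ι ι F} {d : F} {hk : k * k = d • 1} {z : Matrix ι ι F} :
    z ∈ Zk k d hk ↔ ∃ x y : F, z = x • 1 + y • k := Iff.rfl

theorem Zk_comm {k : Matrix ι ι F} {d : F} {hk : k * k = d • 1} :
    ∀ x ∈ Zk k d hk, ∀ y ∈ Zk k d hk, x * y = y * x := by
  rintro _ ⟨x, y, rfl⟩ _ ⟨x', y', rfl⟩
  simp only [Matrix.add_mul, Matrix.mul_add, Matrix.smul_mul, Matrix.mul_smul, Matrix.one_mul, Matrix.mul_one]
  module

theorem Zk_normalizer {k : Matrix ι ι F} {d : F} {hk : k * k = d • 1} {h : GL ι F} {μ : F} (hμ : μ ≠ 0)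
    (hc : (h : Matrix ι ι F) * k = μ • (k * (h : Matrix ι ι F))) : h ∈ subalgebraNormalizer (Zk k d hk) := by
  have h1 : (h : Matrix ι ι F) * ((h⁻¹ : GL ι F) : Matrix ι ι F) = 1 := by
    rw [← Units.val_mul, mul_inv_cancel, Units.val_one]
  have h2 : ((h⁻¹ : GL ι F) : Matrix ι ι F) * (h : Matrix ι ι F) = 1 := by
    rw [← Units.val_mul, inv_mul_cancel, Units.val_one]
  have e1 : (h : Matrix ι ι F) * k * ((h⁻¹ : GL ι F) : Matrix ι ι F) = μ • k := by
    rw [hc, Matrix.smul_mul, Matrix.mul_assoc, h1, Matrix.mul_one]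
  intro z
  constructor
  · rintro ⟨x, y, rfl⟩
    refine ⟨x, y * μ, ?_⟩
    rw [Matrix.mul_add, Matrix.add_mul, Matrix.mul_smul, Matrix.mul_smul, Matrix.smul_mul, Matrix.smul_mul,
      Matrix.mul_one, h1, e1, smul_smul]
  · rintro ⟨x, y, hz⟩
    refine ⟨x, y * μ⁻¹, ?_⟩
    have e2 : ((h⁻¹ : GL ι F) : Matrix ι ι F) * k * (h : Matrix ι ι F) = μ⁻¹ • k := by
      have : k = μ⁻¹ • ((h : Matrix ι ι F) * k * ((h⁻¹ : GL ι F) : Matrix ι ι F)) := by
        rw [e1, smul_smul, inv_mul_cancel₀ hμ, one_smul]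
      conv_lhs => rw [this]
      rw [Matrix.mul_smul, Matrix.smul_mul]
      congr 1
      calc ((h⁻¹ : GL ι F) : Matrix ι ι F) * ((h : Matrix ι ι F) * k * ((h⁻¹ : GL ι F) : Matrix ι ι F)) *
            (h : Matrix ι ι F)
          = (((h⁻¹ : GL ι F) : Matrix ι ι F) * (h : Matrix ι ι F)) * k *
            (((h⁻¹ : GL ι F) : Matrix ι ι F) * (h : Matrix ι ι F)) := by simp only [Matrix.mul_assoc]
        _ = k := by rw [h2, Matrix.one_mul, Matrix.mul_one]
    calc z = (((h⁻¹ : GL ι F) : Matrix ι ι F) * (h : Matrix ι ι F)) * z *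
            (((h⁻¹ : GL ι F) : Matrix ι ι F) * (h : Matrix ι ι F)) := by
          rw [h2, Matrix.one_mul, Matrix.mul_one]
      _ = ((h⁻¹ : GL ι F) : Matrix ι ι F) * ((h : Matrix ι ι F) * z * ((h⁻¹ : GL ι F) : Matrix ι ι F)) *
            (h : Matrix ι ι F) := by simp only [Matrix.mul_assoc]
      _ = _ := by
          rw [hz, Matrix.mul_add, Matrix.add_mul, Matrix.mul_smul, Matrix.mul_smul, Matrix.smul_mul,
            Matrix.smul_mul, Matrix.mul_one, h2, e2, smul_smul]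

theorem Zk_finrank {k : Matrix ι ι F} {d : F} {hk : k * k = d • 1} (hns : ∀ c : F, k ≠ c • 1) :
    Module.finrank F (Zk k d hk) = 2 := by
  have hli : LinearIndependent F ![(1 : Matrix ι ι F), k] := by
    rw [LinearIndependent.pair_iff]
    intro s t hst
    by_cases ht : t = 0
    · subst ht
      rw [zero_smul, add_zero] at hst
      refine ⟨?_, rfl⟩
      by_contra hs
      have h1 : (1 : Matrix ι ι F) = 0 := by
        have := congrArg (fun X => s⁻¹ • X) hst
        simpa [smul_smul, inv_mul_cancel₀ hs] using this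
      exact hns 0 (by rw [zero_smul, ← Matrix.mul_one k, h1, Matrix.mul_zero])
    · exfalso
      apply hns (-(t⁻¹ * s))
      have := congrArg (fun X => t⁻¹ • X) hst
      simp only [smul_add, smul_smul, inv_mul_cancel₀ ht, one_smul, smul_zero] at this
      rw [neg_smul]
      exact eq_neg_of_add_eq_zero_right this
  have hsub : Subalgebra.toSubmodule (Zk k d hk) = Submodule.span F (Set.range ![(1 : Matrix ι ι F), k]) := by
    ext z
    rw [Subalgebra.mem_toSubmodule, mem_Zk]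
    simp only [Matrix.range_cons, Matrix.range_empty, Set.union_empty, Set.singleton_union]
    rw [Submodule.mem_span_pair]
    constructor
    · rintro ⟨x, y, rfl⟩; exact ⟨x, y, rfl⟩
    · rintro ⟨x, y, rfl⟩; exact ⟨x, y, rfl⟩
  have h3 := finrank_span_eq_card hli
  rw [← hsub] at h3
  simpa using h3

end Cfsg.Agent.Lib.Helper99.Sp
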